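import Cfsg.Agent.Lib.H3.SylowCard
import Cfsg.Agent.Lib.Invol.Basic

/-! Groups of order 12 with no central involution. -/

namespace CfsgLib.Invol

open Subgroup

variable {G : Type*} [Group G] [Finite G]

/-- S0228 -/
theorem order12_iso_A4 (hG : Nat.card G = 12)
    (hz : ∀ z : G, orderOf z = 2 → z ∉ center G) : Nonempty (G ≃* alternatingGroup (Fin 4)) := by
  classical
  have hp3 : Fact (Nat.Prime 3) := ⟨by norm_num⟩
  have hp2 : Fact (Nat.Prime 2) := ⟨by norm_num⟩
  have h3 : Nat.card G = 3 ^ 1 * 4 := by rw [hG]; rfl
  have h2 : Nat.card G = 2 ^ 2 * 3 := by rw [hG]; rfl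
  obtain ⟨P⟩ : Nonempty (Sylow 3 G) := inferInstance
  obtain ⟨Q⟩ : Nonempty (Sylow 2 G) := inferInstance
  have hPc : Nat.card P = 3 := by
    rw [CfsgLib.SC.card_sylow_eq h3 (by norm_num) P]; rfl
  have hQc : Nat.card Q = 4 := by
    rw [CfsgLib.SC.card_sylow_eq h2 (by norm_num) Q]; rfl
  have hPi : (P : Subgroup G).index = 4 := CfsgLib.SC.index_sylow_eq h3 (by norm_num) P
  have hn : Nat.card (Sylow 3 G) = 1 ∨ Nat.card (Sylow 3 G) = 4 := by
    have h1 : Nat.card (Sylow 3 G) ∣ 4 := by
      rw [← hPi]; exact Sylow.card_dvd_index P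
    have h4 := card_sylow_modEq_one 3 G
    rw [Nat.ModEq] at h4
    have h5 : Nat.card (Sylow 3 G) ≤ 4 := Nat.le_of_dvd (by norm_num) h1
    generalize Nat.card (Sylow 3 G) = k at *
    interval_cases k <;> first | omega | (exfalso; revert h1; decide) | (exfalso; revert h4; decide)
  rcases hn with h1 | h4
  · -- normal Sylow 3
    exfalso
    have hsub : Subsingleton (Sylow 3 G) := (Nat.card_eq_one_iff_unique.1 h1).1
    have hPn : (P : Subgroup G).Normal := Sylow.normal_of_subsingleton P
    -- the conjugation action of `Q` on `P`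
    have : IsCyclic (P : Subgroup G) := isCyclic_of_prime_card hPc
    let φ : (Q : Subgroup G) →* MulAut (P : Subgroup G) := (MulAut.conjNormal).comp Q.1.subtype
    have hAut : Nat.card (MulAut (P : Subgroup G)) = 2 := by
      rw [IsCyclic.card_mulAut, hPc]; decide
    have hcard := Subgroup.card_mul_index φ.ker
    rw [hQc, Subgroup.index_ker] at hcard
    have hr : Nat.card φ.range ∣ Nat.card (MulAut (P : Subgroup G)) :=
      Subgroup.card_subgroup_dvd_card _
    rw [hAut] at hr
    have hr2 : Nat.card φ.range ≤ 2 := Nat.le_of_dvd (by norm_num) hr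
    have hk : 2 ∣ Nat.card φ.ker := by
      have hrpos : 0 < Nat.card φ.range := Nat.card_pos
      have : Nat.card φ.range = 1 ∨ Nat.card φ.range = 2 := by omega
      rcases this with h | h <;> rw [h] at hcard <;> omega
    obtain ⟨z, hzo⟩ := exists_prime_orderOf_dvd_card' (G := φ.ker) 2 hk
    have hzo' : orderOf ((z : (Q : Subgroup G)) : G) = 2 := by
      rw [Subgroup.orderOf_coe, Subgroup.orderOf_coe]
      exact hzo
    apply hz _ hzo'
    rw [mem_center_iff]
    intro g
    -- `z` commutes with `P`
    have hzP : ∀ p ∈ (P : Subgroup G), ((z : (Q : Subgroup G)) : G) * p = p * (z : (Q : Subgroup G)) := by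
      intro p hp
      have h0 : φ (z : (Q : Subgroup G)) = 1 := z.2
      have h5 := congrArg (fun f : MulAut (P : Subgroup G) => f ⟨p, hp⟩) h0
      have h6 : ((z : (Q : Subgroup G)) : G) * p * ((z : (Q : Subgroup G)) : G)⁻¹ = p :=
        congrArg Subtype.val h5
      calc ((z : (Q : Subgroup G)) : G) * p = (((z : (Q : Subgroup G)) : G) * p * ((z : (Q : Subgroup G)) : G)⁻¹) * ((z : (Q : Subgroup G)) : G) := by group
        _ = p * _ := by rw [h6]
    have hzQ : ∀ q ∈ (Q : Subgroup G), ((z : (Q : Subgroup G)) : G) * q = q * (z : (Q : Subgroup G)) := by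
      intro q hq
      have hcomm := IsPGroup.commutative_of_card_eq_prime_sq (G := (Q : Subgroup G)) (p := 2) hQc
      have := hcomm z ⟨q, hq⟩
      exact congrArg Subtype.val this
    have hcompl : IsComplement' (P : Subgroup G) (Q : Subgroup G) := by
      apply isComplement'_of_coprime
      · rw [hPc, hQc, hG]
      · rw [hPc, hQc]; decide
    obtain ⟨⟨p, q⟩, hpq⟩ := hcompl.2 g
    have hpq' : (p : G) * q = g := hpq
    rw [← hpq']
    calc (p : G) * q * ((z : (Q : Subgroup G)) : G) = p * (q * (z : (Q : Subgroup G))) := by group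
      _ = p * (((z : (Q : Subgroup G)) : G) * q) := by rw [hzQ q q.2]
      _ = (p * ((z : (Q : Subgroup G)) : G)) * q := by group
      _ = (((z : (Q : Subgroup G)) : G) * p) * q := by rw [hzP p p.2]
      _ = _ := by group
  · -- four Sylow 3-subgroups
    let f : G →* Equiv.Perm (Sylow 3 G) := MulAction.toPermHom G (Sylow 3 G)
    have hker : f.ker = ⊥ := by
      rw [eq_bot_iff]
      intro g hg
      have hfix : ∀ R : Sylow 3 G, g ∈ (R : Subgroup G) := by
        intro R
        have h0 : g • R = R := congrArg (fun σ : Equiv.Perm (Sylow 3 G) => σ R) hg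
        have hgN : g ∈ normalizer (R : Set G) := Sylow.smul_eq_iff_mem_normalizer.1 h0
        -- the normalizer of `R` is `R`, since there are four conjugates
        have hidx : (normalizer (R : Set G)).index = 4 := by
          rw [← Sylow.card_eq_index_normalizer]
          exact h4
        have hcN := card_mul_index (normalizer (R : Set G))
        rw [hidx, hG] at hcN
        have hRc : Nat.card R = 3 := by
          rw [CfsgLib.SC.card_sylow_eq h3 (by norm_num) R]; rfl
        have hNc : Nat.card (normalizer (R : Set G)) = 3 := by omega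
        have hRN : (R : Subgroup G) ≤ normalizer (R : Set G) := le_normalizer
        have heq : (R : Subgroup G) = normalizer (R : Set G) :=
          Subgroup.eq_of_le_of_card_ge hRN (by rw [hRc, hNc])
        rw [heq]
        exact hgN
      -- two different Sylow 3-subgroups meet trivially
      have hnt : 1 < Nat.card (Sylow 3 G) := by omega
      have : Nontrivial (Sylow 3 G) := Finite.one_lt_card_iff_nontrivial.1 hnt
      obtain ⟨R₁, R₂, hne⟩ := exists_pair_ne (Sylow 3 G)
      rw [Subgroup.mem_bot]
      by_contra hg1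
      -- `g` generates both
      have hcard1 : ∀ R : Sylow 3 G, (R : Subgroup G) = zpowers g := by
        intro R
        have hRc : Nat.card R = 3 := by
          rw [CfsgLib.SC.card_sylow_eq h3 (by norm_num) R]; rfl
        symm
        apply Subgroup.eq_of_le_of_card_ge ((zpowers_le).2 (hfix R))
        rw [hRc, Nat.card_zpowers]
        have h5 : orderOf g ∣ Nat.card R := by
          have := orderOf_dvd_natCard (⟨g, hfix R⟩ : (R : Subgroup G))
          rwa [Subgroup.orderOf_mk] at this
        rw [hRc] at h5
        have h6 : orderOf g ≠ 1 := fun h => hg1 (orderOf_eq_one_iff.1 h)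
        have := (Nat.dvd_prime (by norm_num : Nat.Prime 3)).1 h5
        omega
      apply hne
      apply Sylow.ext
      rw [hcard1 R₁, hcard1 R₂]
    have hinj : Function.Injective f := (MonoidHom.ker_eq_bot_iff f).1 hker
    have hrc : Nat.card f.range = 12 := by
      rw [← hG]
      exact (Nat.card_congr (MonoidHom.ofInjective hinj).toEquiv).symm
    have : Fintype (Sylow 3 G) := Fintype.ofFinite _
    have hperm : Nat.card (Equiv.Perm (Sylow 3 G)) = 24 := by
      rw [Nat.card_eq_fintype_card, Fintype.card_perm, ← Nat.card_eq_fintype_card, h4]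
      rfl
    have hidx : f.range.index = 2 := by
      have := card_mul_index f.range
      rw [hrc, hperm] at this
      omega
    have hrange := Equiv.Perm.eq_alternatingGroup_of_index_eq_two hidx
    have e : Sylow 3 G ≃ Fin 4 := Finite.equivFinOfCardEq h4
    exact ⟨(MonoidHom.ofInjective hinj).trans
      ((MulEquiv.subgroupCongr hrange).trans (Equiv.altCongrHom e))⟩

end CfsgLib.Invol
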