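import Cfsg.Agent.Lib.Invol.Bounds
import Cfsg.Agent.Lib.H3.SignIndexTwo

/-! The Thompson order formula. -/

namespace CfsgLib.Invol

open Subgroup CfsgLib.CS

variable {G : Type*} [Group G] [Finite G]

/-- unique involution in a cyclic group `zpowers r`. -/
lemma eq_of_mem_zpowers_of_order_two {r a b : G} (ha : a ∈ zpowers r) (hb : b ∈ zpowers r)
    (hao : orderOf a = 2) (hbo : orderOf b = 2) : a = b := by
  have h := CfsgLib.SignIdx.eq_of_orderOf_two_of_isCyclic (A := zpowers r)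
    (a := ⟨a, ha⟩) (b := ⟨b, hb⟩) (by rw [Subgroup.orderOf_mk]; exact hao)
    (by rw [Subgroup.orderOf_mk]; exact hbo)
  exact congrArg Subtype.val h

/-- the pairs with `z` in the cyclic group generated by the product -/
abbrev TP (x₁ x₂ z : G) : Type _ :=
  {p : G × G // IsConj x₁ p.1 ∧ IsConj x₂ p.2 ∧ z ∈ zpowers (p.1 * p.2)}

/-- conjugation invariance -/
lemma card_TP_conj (x₁ x₂ z c : G) :
    Nat.card (TP x₁ x₂ (c * z * c⁻¹)) = Nat.card (TP x₁ x₂ z) := by
  apply Nat.card_congr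
  have hconj : ∀ (c a b : G), a ∈ zpowers b → c * a * c⁻¹ ∈ zpowers (c * b * c⁻¹) := by
    intro c a b h
    obtain ⟨k, rfl⟩ := mem_zpowers_iff.1 h
    refine mem_zpowers_iff.2 ⟨k, ?_⟩
    rw [_root_.conj_zpow]
  have hc2 : ∀ (c a b : G), IsConj a b → IsConj a (c * b * c⁻¹) := by
    intro c a b h
    exact h.trans (isConj_iff.2 ⟨c, rfl⟩)
  refine ⟨fun p => ⟨(c⁻¹ * p.1.1 * c, c⁻¹ * p.1.2 * c), ?_⟩,
    fun q => ⟨(c * q.1.1 * c⁻¹, c * q.1.2 * c⁻¹), ?_⟩, ?_, ?_⟩
  · obtain ⟨⟨u, v⟩, hu, hv, hz⟩ := p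
    refine ⟨?_, ?_, ?_⟩
    · have := hc2 c⁻¹ _ _ hu
      simpa using this
    · have := hc2 c⁻¹ _ _ hv
      simpa using this
    · have := hconj c⁻¹ _ _ hz
      have e1 : c⁻¹ * (c * z * c⁻¹) * c⁻¹⁻¹ = z := by group
      have e2 : c⁻¹ * (u * v) * c⁻¹⁻¹ = c⁻¹ * u * c * (c⁻¹ * v * c) := by group
      rw [e1, e2] at this
      exact this
  · obtain ⟨⟨u, v⟩, hu, hv, hz⟩ := q
    refine ⟨hc2 c _ _ hu, hc2 c _ _ hv, ?_⟩
    have := hconj c _ _ hz
    have e2 : c * (u * v) * c⁻¹ = c * u * c⁻¹ * (c * v * c⁻¹) := by group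
    rw [e2] at this
    exact this
  · rintro ⟨⟨u, v⟩, hu, hv, hz⟩
    apply Subtype.ext
    simp only [Prod.mk.injEq]
    constructor <;> group
  · rintro ⟨⟨u, v⟩, hu, hv, hz⟩
    apply Subtype.ext
    simp only [Prod.mk.injEq]
    constructor <;> group

/-- S0213 -/
theorem thompson_order_formula (x₁ x₂ : G) (h₁ : orderOf x₁ = 2) (h₂ : orderOf x₂ = 2)
    (hnc : ¬ IsConj x₁ x₂) (hall : ∀ t : G, orderOf t = 2 → IsConj x₁ t ∨ IsConj x₂ t) :
    Nat.card G = Nat.card (centralizer ({x₂} : Set G)) * Nat.card (TP x₁ x₂ x₁) +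
      Nat.card (centralizer ({x₁} : Set G)) * Nat.card (TP x₁ x₂ x₂) := by
  classical
  have : Fintype G := Fintype.ofFinite G
  let X : Finset G := Finset.univ.filter (fun u => IsConj x₁ u)
  let Y : Finset G := Finset.univ.filter (fun u => IsConj x₂ u)
  have hX : X.card * Nat.card (centralizer ({x₁} : Set G)) = Nat.card G := by
    have h0 : X.card = Nat.card {u // IsConj x₁ u} := (natCard_subtype_eq_filter _).symm
    rw [h0]
    exact card_class_mul_centralizer x₁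
  have hY : Y.card * Nat.card (centralizer ({x₂} : Set G)) = Nat.card G := by
    have h0 : Y.card = Nat.card {u // IsConj x₂ u} := (natCard_subtype_eq_filter _).symm
    rw [h0]
    exact card_class_mul_centralizer x₂
  let f : G × G → G := fun p => (p.1 * p.2) ^ (orderOf (p.1 * p.2) / 2)
  have hinv : ∀ p ∈ X ×ˢ Y, orderOf (f p) = 2 ∧ f p ∈ zpowers (p.1 * p.2) := by
    rintro ⟨u, v⟩ hp
    obtain ⟨hu, hv⟩ := Finset.mem_product.1 hp
    have hu' : IsConj x₁ u := (Finset.mem_filter.1 hu).2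
    have hv' : IsConj x₂ v := (Finset.mem_filter.1 hv).2
    have huo : orderOf u = 2 := by rw [← h₁]; exact (orderOf_eq_of_isConj hu').symm
    have hvo : orderOf v = 2 := by rw [← h₂]; exact (orderOf_eq_of_isConj hv').symm
    have heven : Even (orderOf (u * v)) :=
      even_of_not_conj huo hvo (fun h => hnc ((hu'.trans h).trans hv'.symm))
    exact ⟨(z_props huo hvo heven).1, pow_mem (mem_zpowers _) _⟩
  have hmaps : ∀ p ∈ X ×ˢ Y, f p ∈ X ∪ Y := by
    intro p hp
    rcases hall _ (hinv p hp).1 with h | h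
    · exact Finset.mem_union_left _ (Finset.mem_filter.2 ⟨Finset.mem_univ _, h⟩)
    · exact Finset.mem_union_right _ (Finset.mem_filter.2 ⟨Finset.mem_univ _, h⟩)
  have hcard := Finset.card_eq_sum_card_fiberwise hmaps
  rw [Finset.card_product] at hcard
  have hdisj : Disjoint X Y := by
    rw [Finset.disjoint_left]
    intro a ha hb
    exact hnc (((Finset.mem_filter.1 ha).2).trans ((Finset.mem_filter.1 hb).2).symm)
  rw [Finset.sum_union hdisj] at hcard
  -- fibres
  have hfib : ∀ z : G, orderOf z = 2 →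
      (((X ×ˢ Y).filter (fun p => f p = z)).card = Nat.card (TP x₁ x₂ z)) := by
    intro z hz
    rw [natCard_subtype_eq_filter]
    congr 1
    ext ⟨u, v⟩
    simp only [Finset.mem_filter, Finset.mem_product, Finset.mem_univ, true_and, X, Y]
    constructor
    · rintro ⟨⟨hu, hv⟩, hfz⟩
      refine ⟨hu, hv, ?_⟩
      rw [← hfz]
      exact (hinv (u, v) (Finset.mem_product.2 ⟨Finset.mem_filter.2 ⟨Finset.mem_univ _, hu⟩,
        Finset.mem_filter.2 ⟨Finset.mem_univ _, hv⟩⟩)).2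
    · rintro ⟨hu, hv, hzm⟩
      refine ⟨⟨hu, hv⟩, ?_⟩
      have h := hinv (u, v) (Finset.mem_product.2 ⟨Finset.mem_filter.2 ⟨Finset.mem_univ _, hu⟩,
        Finset.mem_filter.2 ⟨Finset.mem_univ _, hv⟩⟩)
      exact eq_of_mem_zpowers_of_order_two h.2 hzm h.1 hz
  have hsumX : ∑ z ∈ X, ((X ×ˢ Y).filter (fun p => f p = z)).card =
      X.card * Nat.card (TP x₁ x₂ x₁) := by
    rw [← smul_eq_mul, ← Finset.sum_const]
    apply Finset.sum_congr rfl
    intro z hz
    have hz' : IsConj x₁ z := (Finset.mem_filter.1 hz).2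
    have hzo : orderOf z = 2 := by rw [← h₁]; exact (orderOf_eq_of_isConj hz').symm
    rw [hfib z hzo]
    obtain ⟨c, rfl⟩ := isConj_iff.1 hz'
    exact card_TP_conj x₁ x₂ x₁ c
  have hsumY : ∑ z ∈ Y, ((X ×ˢ Y).filter (fun p => f p = z)).card =
      Y.card * Nat.card (TP x₁ x₂ x₂) := by
    rw [← smul_eq_mul, ← Finset.sum_const]
    apply Finset.sum_congr rfl
    intro z hz
    have hz' : IsConj x₂ z := (Finset.mem_filter.1 hz).2
    have hzo : orderOf z = 2 := by rw [← h₂]; exact (orderOf_eq_of_isConj hz').symm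
    rw [hfib z hzo]
    obtain ⟨c, rfl⟩ := isConj_iff.1 hz'
    exact card_TP_conj x₁ x₂ x₂ c
  rw [hsumX, hsumY] at hcard
  set c₁ := Nat.card (centralizer ({x₁} : Set G))
  set c₂ := Nat.card (centralizer ({x₂} : Set G))
  set n₁ := Nat.card (TP x₁ x₂ x₁)
  set n₂ := Nat.card (TP x₁ x₂ x₂)
  set N := Nat.card G with hN
  have hNpos : 0 < N := Nat.card_pos
  have key : N * N = N * (c₂ * n₁ + c₁ * n₂) := by
    calc N * N = (X.card * c₁) * (Y.card * c₂) := by rw [hX, hY]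
      _ = c₁ * c₂ * (X.card * Y.card) := by ring
      _ = c₁ * c₂ * (X.card * n₁ + Y.card * n₂) := by rw [hcard]
      _ = (X.card * c₁) * (c₂ * n₁) + (Y.card * c₂) * (c₁ * n₂) := by ring
      _ = N * (c₂ * n₁ + c₁ * n₂) := by rw [hX, hY]; ring
  exact Nat.eq_of_mul_eq_mul_left hNpos key

end CfsgLib.Invol
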